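import Mathlib
import Cfsg.Agent.Lib.Helper1.Fpf2

set_option autoImplicit false

namespace Cfsg.Agent.Lib.Helper62.BG1212

open Subgroup

/-- in a cyclic group the elements of order dividing `r` lie in every nontrivial `r`-subgroup -/
theorem mem_zpowers_of_isCyclic {C : Type*} [Group C] [Finite C] [IsCyclic C] {r : ℕ}
    [Fact r.Prime] {e b : C} {k : ℕ} (hek : e ^ r ^ k = 1) (he1 : e ≠ 1) (hbr : b ^ r = 1) :
    b ∈ Subgroup.zpowers e := by
  classical
  have hr : r.Prime := Fact.out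
  have := Fintype.ofFinite C
  obtain ⟨m, -, hm⟩ := (Nat.dvd_prime_pow hr).1 (orderOf_dvd_of_pow_eq_one hek)
  have hm0 : m ≠ 0 := by
    rintro rfl
    rw [pow_zero, orderOf_eq_one_iff] at hm
    exact he1 hm
  have hdvd : r ∣ orderOf e := by rw [hm]; exact dvd_pow_self r hm0
  set f := e ^ (orderOf e / r) with hf
  have hfo : orderOf f = r := orderOf_pow_orderOf_div (orderOf_pos e).ne' hdvd
  have hfe : Subgroup.zpowers f ≤ Subgroup.zpowers e :=
    (Subgroup.zpowers_le).2 (Subgroup.npow_mem_zpowers e _)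
  apply hfe
  -- count the solutions of x ^ r = 1
  have h1 := IsCyclic.card_pow_eq_one_le (α := C) hr.pos
  have h2 : (Finset.univ.filter fun x : C => x ∈ Subgroup.zpowers f) ⊆
      Finset.univ.filter fun a : C => a ^ r = 1 := by
    intro x hx
    rw [Finset.mem_filter] at hx ⊢
    refine ⟨Finset.mem_univ _, ?_⟩
    obtain ⟨j, rfl⟩ := Subgroup.mem_zpowers_iff.1 hx.2
    rw [← zpow_natCast, ← zpow_mul, mul_comm, zpow_mul, zpow_natCast, ← hfo, pow_orderOf_eq_one,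
      one_zpow]
  have h3 : (Finset.univ.filter fun x : C => x ∈ Subgroup.zpowers f).card = r := by
    rw [← hfo, ← Nat.card_zpowers, Nat.card_eq_fintype_card, Fintype.card_subtype]
  have h4 := Finset.eq_of_subset_of_card_le h2 (by rw [h3]; exact h1)
  have h5 : b ∈ Finset.univ.filter fun a : C => a ^ r = 1 :=
    Finset.mem_filter.2 ⟨Finset.mem_univ _, hbr⟩
  rw [← h4] at h5
  exact (Finset.mem_filter.1 h5).2

universe u
variable {G : Type u} [Group G]

theorem cyc [Finite G] {A R : Subgroup G} (hA1 : A ≠ ⊥)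
    (hAc : ∀ a ∈ A, ∀ a' ∈ A, a * a' = a' * a) (hRA : R ≤ normalizer (A : Set G))
    (hRc : ∀ x ∈ R, ∀ y ∈ R, x * y = y * x)
    (hfree : ∀ g ∈ R, g ∈ centralizer (A : Set G) ∨ A ⊓ centralizer ({g} : Set G) = ⊥)
    {r : ℕ} [Fact r.Prime] {e b : G} (he : e ∈ R) (hb : b ∈ R) {k : ℕ} (hek : e ^ r ^ k = 1)
    (heC : e ∉ centralizer (A : Set G)) (hbr : b ^ r = 1) :
    ∃ i : ℕ, b * e ^ i ∈ centralizer (A : Set G) := by
  letI : CommGroup A :=
    { (inferInstance : Group A) with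
      mul_comm := fun a b => Subtype.ext (hAc a a.2 b b.2) }
  have hnt : Nontrivial A := (Subgroup.nontrivial_iff_ne_bot A).2 hA1
  let ψ : R →* MulAut A := A.normalizerMonoidHom.comp (Subgroup.inclusion hRA)
  have hψ : ∀ (g : R) (v : A), ((ψ g v : A) : G) = g * v * (g : G)⁻¹ := fun _ _ => rfl
  have hker : ∀ g : R, ψ g = 1 ↔ (g : G) ∈ centralizer (A : Set G) := by
    intro g
    have h1 : ψ g = 1 ↔ Subgroup.inclusion hRA g ∈ A.normalizerMonoidHom.ker := Iff.rfl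
    rw [h1, Subgroup.normalizerMonoidHom_ker, Subgroup.mem_subgroupOf]
    rfl
  have hfpf : ∀ a : ψ.range, a ≠ 1 → ∀ v : A, (ψ.range.subtype a) v = v → v = 1 := by
    rintro ⟨_, g, rfl⟩ hne v hv
    have hg : (g : G) ∉ centralizer (A : Set G) := by
      intro h
      apply hne
      apply Subtype.ext
      exact (hker g).2 h
    have hbot := (hfree g g.2).resolve_left hg
    have h1 : (v : G) ∈ A ⊓ centralizer ({(g : G)} : Set G) := by
      refine Subgroup.mem_inf.2 ⟨v.2, ?_⟩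
      rw [Subgroup.mem_centralizer_singleton_iff]
      have h2 : (g : G) * v * (g : G)⁻¹ = v := by
        rw [← hψ]; exact congrArg Subtype.val hv
      calc (v : G) * g = ((g : G) * v * (g : G)⁻¹) * g := by rw [h2]
        _ = g * v := by group
    rw [hbot, Subgroup.mem_bot] at h1
    exact Subtype.ext h1
  have hcomm : ∀ a b : ψ.range, a * b = b * a := by
    rintro ⟨_, g, rfl⟩ ⟨_, g', rfl⟩
    apply Subtype.ext
    show ψ g * ψ g' = ψ g' * ψ g
    rw [← map_mul, ← map_mul]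
    congr 1
    exact Subtype.ext (hRc g g.2 g' g'.2)
  have hcyc : IsCyclic ψ.range :=
    Cfsg.Agent.Lib.Helper1.fpf_isCyclic_of_comm ψ.range.subtype hfpf hcomm
  let eb : ψ.range := ⟨ψ ⟨e, he⟩, ⟨e, he⟩, rfl⟩
  let bb : ψ.range := ⟨ψ ⟨b, hb⟩, ⟨b, hb⟩, rfl⟩
  have h1 : eb ^ r ^ k = 1 := by
    apply Subtype.ext
    show (ψ ⟨e, he⟩) ^ r ^ k = 1
    rw [← map_pow]
    have : (⟨e, he⟩ : R) ^ r ^ k = 1 := Subtype.ext hek
    rw [this, map_one]
  have h2 : eb ≠ 1 := by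
    intro h
    apply heC
    exact (hker ⟨e, he⟩).1 (congrArg Subtype.val h)
  have h3 : bb⁻¹ ^ r = 1 := by
    apply Subtype.ext
    show (ψ ⟨b, hb⟩)⁻¹ ^ r = 1
    rw [inv_pow, ← map_pow]
    have : (⟨b, hb⟩ : R) ^ r = 1 := Subtype.ext hbr
    rw [this, map_one, inv_one]
  have h4 := mem_zpowers_of_isCyclic h1 h2 h3
  obtain ⟨i, hi⟩ := (mem_powers_iff_mem_zpowers).2 h4
  refine ⟨i, ?_⟩
  have h5 : ψ (⟨b, hb⟩ * ⟨e, he⟩ ^ i) = 1 := by
    rw [map_mul, map_pow]
    have h6 : (ψ ⟨e, he⟩) ^ i = (ψ ⟨b, hb⟩)⁻¹ := congrArg Subtype.val hi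
    rw [h6, mul_inv_cancel]
  exact (hker _).1 h5

end Cfsg.Agent.Lib.Helper62.BG1212
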