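import Mathlib

set_option autoImplicit false

namespace Cfsg.Agent.Lib.Helper62.BG1212

open Subgroup

theorem split_comm {A : Type*} [CommGroup A] [Finite A] {p : ℕ} [Fact p.Prime] (Z : Subgroup A)
    (hpth : ∀ y : A, y ^ p ∈ Z → y ^ p = 1) :
    ∃ H : Subgroup A, H ⊓ Z = ⊥ ∧ H ⊔ Z = ⊤ := by
  have hp : p.Prime := Fact.out
  let P : Subgroup A → Prop := fun H => (∀ y : A, y ^ p ∈ H) ∧ H ⊓ Z = ⊥
  have hne : Nonempty {H : Subgroup A // P H} := by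
    refine ⟨⟨(powMonoidHom p : A →* A).range, ?_, ?_⟩⟩
    · intro y; exact ⟨y, rfl⟩
    · rw [Subgroup.eq_bot_iff_forall]
      rintro x ⟨⟨y, rfl⟩, hx⟩
      exact hpth y hx
  obtain ⟨⟨H, hH1, hH2⟩, hmax⟩ :=
    Finite.exists_max (fun H : {H : Subgroup A // P H} => Nat.card H.1)
  refine ⟨H, hH2, ?_⟩
  rw [eq_top_iff]
  intro u _
  by_contra hu
  have huH : u ∉ H := fun h => hu (Subgroup.mem_sup_left h)
  have hlt : H < H ⊔ Subgroup.zpowers u := by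
    refine lt_of_le_of_ne le_sup_left (fun h => huH ?_)
    rw [h]
    exact Subgroup.mem_sup_right (Subgroup.mem_zpowers u)
  have hcard : Nat.card H < Nat.card (H ⊔ Subgroup.zpowers u : Subgroup A) :=
    (Subgroup.card_le_of_le hlt.le).lt_of_ne
      (fun h => hlt.ne (Subgroup.eq_of_le_of_card_ge hlt.le h.ge))
  have hnot : ¬ P (H ⊔ Subgroup.zpowers u) := fun h => absurd (hmax ⟨_, h⟩) (not_le.2 hcard)
  have hZH' : (H ⊔ Subgroup.zpowers u) ⊓ Z ≠ ⊥ :=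
    fun h => hnot ⟨fun y => Subgroup.mem_sup_left (hH1 y), h⟩
  obtain ⟨a, ha, ha1⟩ : ∃ a ∈ (H ⊔ Subgroup.zpowers u) ⊓ Z, a ≠ 1 := by
    by_contra hcon
    push Not at hcon
    exact hZH' ((Subgroup.eq_bot_iff_forall _).2 hcon)
  obtain ⟨h, hh, w, hw, hhw⟩ := Subgroup.mem_sup.1 ha.1
  obtain ⟨i, rfl⟩ := Subgroup.mem_zpowers_iff.1 hw
  have haH : a ∉ H := by
    intro haH
    have : a ∈ H ⊓ Z := ⟨haH, ha.2⟩
    rw [hH2, Subgroup.mem_bot] at this
    exact ha1 this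
  have hpi : ¬ (p : ℤ) ∣ i := by
    rintro ⟨k, rfl⟩
    apply haH
    rw [← hhw]
    apply H.mul_mem hh
    rw [mul_comm, zpow_mul, zpow_natCast]
    exact hH1 _
  have hcop : IsCoprime (p : ℤ) i :=
    (Prime.coprime_iff_not_dvd (Nat.prime_iff_prime_int.1 hp)).2 hpi
  obtain ⟨β, α, hαβ⟩ := hcop
  apply hu
  have e1 : u = (u ^ p) ^ β * (u ^ i) ^ α := by
    rw [← zpow_natCast, ← zpow_mul, ← zpow_mul, ← zpow_add, mul_comm (p : ℤ), mul_comm i, hαβ,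
      zpow_one]
  rw [e1]
  apply Subgroup.mul_mem
  · exact Subgroup.zpow_mem _ (Subgroup.mem_sup_left (hH1 u)) _
  · apply Subgroup.zpow_mem
    have e2 : u ^ i = h⁻¹ * a := by rw [← hhw]; group
    rw [e2]
    exact Subgroup.mul_mem _ (Subgroup.mem_sup_left (H.inv_mem hh)) (Subgroup.mem_sup_right ha.2)

universe u
variable {G : Type u} [Group G]

theorem split [Finite G] {p : ℕ} [Fact p.Prime] {S Z : Subgroup G} (hS : IsPGroup p S)
    (hSc : ∀ a ∈ S, ∀ b ∈ S, a * b = b * a) (hZS : Z ≤ S) (hZ : Nat.card Z = p)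
    (hpth : ∀ y ∈ S, y ^ p ∈ Z → y ^ p = 1) :
    ∃ H : Subgroup G, H ≤ S ∧ H ⊓ Z = ⊥ ∧ H ⊔ Z = S := by
  letI : CommGroup S :=
    { (inferInstance : Group S) with
      mul_comm := fun a b => Subtype.ext (hSc a a.2 b b.2) }
  obtain ⟨H, hH1, hH2⟩ := split_comm (p := p) (Z.subgroupOf S) (by
    intro y hy
    apply Subtype.ext
    exact hpth y y.2 (Subgroup.mem_subgroupOf.1 hy))
  refine ⟨H.map S.subtype, Subgroup.map_subtype_le H, ?_, ?_⟩
  · rw [Subgroup.eq_bot_iff_forall]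
    rintro _ ⟨⟨h, hh, rfl⟩, hz⟩
    have : h ∈ H ⊓ Z.subgroupOf S := ⟨hh, Subgroup.mem_subgroupOf.2 hz⟩
    rw [hH1, Subgroup.mem_bot] at this
    rw [this]
    rfl
  · have h1 := congrArg (Subgroup.map S.subtype) hH2
    rw [Subgroup.map_sup, Subgroup.subgroupOf_map_subtype, inf_eq_left.2 hZS,
      ← MonoidHom.range_eq_map, Subgroup.range_subtype] at h1
    exact h1

end Cfsg.Agent.Lib.Helper62.BG1212
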