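import Mathlib
import Cfsg.Agent.Lib.Helper39.TraceGroup
import Cfsg.Agent.Lib.Helper40.ChiefP
import Cfsg.Agent.Lib.Helper57.FC5
import Cfsg.Agent.Lib.Helper14.Cores

set_option autoImplicit false

/-! If a Sylow `p`-subgroup `T` is a maximal subgroup and `g ∈ T - O_p(X)` acts on a chief factor
below `O_p(X)` with `[U, g; p-1] ≤ V`, then `g` centralizes this chief factor. -/

namespace Cfsg.Agent.Lib.Helper62

open Cfsg Cfsg.Agent.Lib.Helper39 Cfsg.Agent.Lib.Helper40
open scoped commutatorElement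

theorem map_iterCommutator {X Y : Type*} [Group X] [Group Y] (f : X →* Y) (U Z : Subgroup X)
    (n : ℕ) : (iterCommutator U Z n).map f = iterCommutator (U.map f) (Z.map f) n := by
  induction n with
  | zero => rfl
  | succ n ih =>
    rw [iterCommutator_succ, iterCommutator_succ, Subgroup.map_commutator, ih]

theorem chief_central_of_coatom {X : Type*} [Group X] [Finite X] {p : ℕ} [Fact p.Prime]
    (T : Sylow p X) (hco : IsCoatom (T : Subgroup X)) (g : X) (hgT : g ∈ (T : Subgroup X))
    (hg : g ∉ pCore p X) (U V : Subgroup X) (hch : IsChiefFactor U V) (hUO : U ≤ pCore p X)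
    (hit : iterCommutator U (Subgroup.zpowers g) (p - 1) ≤ V) :
    ⁅U, Subgroup.zpowers g⁆ ≤ V := by
  obtain ⟨hlt, hUn, hVn, hmin⟩ := id hch
  have hOp : IsPGroup p (pCore p X) := Cfsg.Agent.Lib.Helper14.isPGroup_pCore
  have hUp : IsPGroup p U := hOp.to_le hUO
  have hVp : IsPGroup p V := hUp.to_le hlt.le
  have hUT : U ≤ (T : Subgroup X) := hUO.trans (Cfsg.Agent.Lib.Helper14.pCore_le_sylow T)
  set π := QuotientGroup.mk' V with hπ
  have hsurj : Function.Surjective π := QuotientGroup.mk'_surjective V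
  have hker : π.ker = V := QuotientGroup.ker_mk' V
  have hVbot : V.map π = ⊥ := (Subgroup.map_eq_bot_iff _).mpr hker.ge
  have hcomapmap : ∀ A : Subgroup X, V ≤ A → (A.map π).comap π = A := by
    intro A hA
    rw [Subgroup.comap_map_eq, hker, sup_eq_left.mpr hA]
  set Tb := (T : Subgroup X).map π with hTb
  set Ub := U.map π with hUb
  have hUbn : Ub.Normal := hUn.map π hsurj
  have hidx : ¬ p ∣ Tb.index := by
    have := (T.mapSurjective hsurj).not_dvd_index
    rwa [Sylow.coe_mapSurjective] at this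
  have hmax : ∀ K : Subgroup (X ⧸ V), Tb ≤ K → K ≠ ⊤ → K ≤ Tb := by
    intro K hK hKt
    have h1 : (T : Subgroup X) ≤ K.comap π := by
      intro t ht
      exact hK ⟨t, ht, rfl⟩
    have h2 : K.comap π ≠ ⊤ := by
      intro h
      apply hKt
      rw [← Subgroup.map_comap_eq_self_of_surjective hsurj K, h, Subgroup.map_top_of_surjective π hsurj]
    have h3 : K.comap π = (T : Subgroup X) := by
      by_contra hne
      exact h2 (hco.2 _ (lt_of_le_of_ne h1 (Ne.symm hne)))
    rw [← Subgroup.map_comap_eq_self_of_surjective hsurj K, h3]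
  have hgb : π g ∉ pCore p (X ⧸ V) := by
    intro h
    apply hg
    have hp1 : IsPGroup p ((pCore p (X ⧸ V)).comap π) :=
      (Cfsg.Agent.Lib.Helper14.isPGroup_pCore).comap_of_ker_isPGroup π (by rw [hker]; exact hVp)
    have hn1 : ((pCore p (X ⧸ V)).comap π).Normal := inferInstance
    exact Cfsg.Agent.Lib.Helper14.le_pCore hn1 hp1 h
  have hcomm : ⁅U, U⁆ ≤ V := chief_commutator_le hch hUn hUp.isNilpotent le_rfl
  have hUbab : ∀ a ∈ Ub, ∀ b ∈ Ub, a * b = b * a := by
    rintro _ ⟨a, ha, rfl⟩ _ ⟨b, hb, rfl⟩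
    have h1 : ⁅a, b⁆ ∈ V := hcomm (Subgroup.commutator_mem_commutator ha hb)
    have h2 : π ⁅a, b⁆ = 1 := (QuotientGroup.eq_one_iff _).mpr h1
    rw [map_commutatorElement, commutatorElement_eq_one_iff_mul_comm] at h2
    exact h2
  have hitb : iterCommutator Ub (Subgroup.zpowers (π g)) (p - 1) = ⊥ := by
    rw [eq_bot_iff, ← hVbot, hUb, ← MonoidHom.map_zpowers, ← map_iterCommutator]
    exact Subgroup.map_mono hit
  have hUbne : Ub ≠ ⊥ := by
    intro h
    have h1 : U ≤ V := ((Subgroup.map_eq_bot_iff _).mp h).trans hker.le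
    exact absurd hlt (not_lt_of_ge h1)
  obtain ⟨y, hyU, hy1, hyT⟩ := Cfsg.Agent.Lib.Helper57.FC.exists_central (p := p) (S := Tb) (D := Ub)
    (T.2.map π) (Subgroup.map_mono hUT) hUbne (by
      rw [Subgroup.normalizer_eq_top_iff.mpr hUbn]; exact le_top)
  have hycen := central_of_unique_max Tb Tb Ub le_rfl (T.2.map π) hidx hmax (π g) ⟨g, hgT, rfl⟩ hgb
    hUbab (hUp.map π)
    (by
      intro U₁ U₁' _ hU₁
      calc iterCommutator U₁ (Subgroup.zpowers (π g)) (p - 1)
          ≤ iterCommutator Ub (Subgroup.zpowers (π g)) (p - 1) := iterCommutator_mono hU₁ le_rfl _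
        _ = ⊥ := hitb
        _ ≤ U₁' := bot_le)
    y hyU hUbn hyT
  -- the central elements of `Ub`
  set N := (Ub ⊓ Subgroup.center (X ⧸ V)).comap π with hN
  have hNn : N.Normal := inferInstance
  have hVN : V ≤ N := by
    intro v hv
    have h1 : π v = 1 := (QuotientGroup.eq_one_iff v).mpr hv
    rw [hN, Subgroup.mem_comap, h1]
    exact Subgroup.one_mem _
  have hNU : N ≤ U := by
    rw [← hcomapmap U hlt.le]
    exact Subgroup.comap_mono inf_le_left
  have hNV : N ≠ V := by
    intro h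
    obtain ⟨y₀, rfl⟩ := hsurj y
    have h1 : y₀ ∈ N := by
      rw [hN, Subgroup.mem_comap]
      rw [Subgroup.mem_inf]
      refine ⟨hyU, ?_⟩
      rw [Subgroup.mem_center_iff]
      exact hycen
    rw [h] at h1
    exact hy1 ((QuotientGroup.eq_one_iff y₀).mpr h1)
  have hNeq : N = U := (hmin N hNn hVN hNU).resolve_left hNV
  rw [Subgroup.commutator_le]
  intro u hu z _
  have h1 : u ∈ N := by rw [hNeq]; exact hu
  have h2 : π u ∈ Subgroup.center (X ⧸ V) := h1.2
  have h3 : π ⁅u, z⁆ = 1 := by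
    rw [map_commutatorElement, commutatorElement_eq_one_iff_mul_comm]
    exact (Subgroup.mem_center_iff.mp h2 (π z)).symm
  exact (QuotientGroup.eq_one_iff _).mp h3

end Cfsg.Agent.Lib.Helper62
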