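import Cfsg.Agent.Lib.Helper45.GrSetup
import Cfsg.Agent.Lib.Helper45.TwistD4Count
import Cfsg.Agent.Lib.Helper45.TwistCoxD4
import Cfsg.Agent.Lib.Helper45.TwistOrder
import Cfsg.Agent.Lib.Helper45.WtF4

/-!
# GR ladder, rung CNTD4: the order of `twistedD4 K 1` (the fixed points of triality on `D₄(K)`)
-/

set_option autoImplicit false

namespace Cfsg.Agent.Lib.Helper62

open Cfsg.Lie Matrix Cfsg.Agent.Lib.Helper23 Cfsg.Agent.Lib.Helper22 Cfsg.Agent.Lib.Helper8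
  Cfsg.Agent.Lib.Helper45
open Cfsg.Agent.Lib.Helper45.LData

/-- depths (equal weights) in the orbits of the chain of type G2 -/
def G2flat1 : List (List (ℕ × ℕ)) :=
  [[(8385, 1), (8257, 2), (8255, 3), (8127, 4), (8126, 5)], [(8387, 1)]]

set_option maxRecDepth 100000 in
theorem G2_wchain1 : G2X.WChainCheck ![1, 1] (List.finRange 2) G2chain G2flat1 := by
  decide +kernel

theorem G2_wpoly1 (q : ℤ) : (q - 1) ^ 2 *
    ((1 + (q ^ 1 + (q ^ 2 + (q ^ 3 + (q ^ 4 + q ^ 5))))) * (1 + q ^ 1)) =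
    (q ^ 2 - 1) * (q ^ 6 - 1) := by ring

/-- Poincaré series of type G2 with weights `q, q` -/
theorem G2_wsum1 {W : Type*} [Group W] (f : Fin 2 → W) (hinv : ∀ i, f i * f i = 1)
    (hgen : ∀ w, ∃ L, wp f L = w) (hex : ExCond f)
    (hM : ∀ i j, orderOf (f i * f j) = CoxeterMatrix.G₂ i j) (q : ℕ) (hq : 1 ≤ q) (c : W → ℕ)
    (hcw : ∀ i L, Red f (i :: L) → c (wp f (i :: L)) = q ^ (![1, 1] i : ℕ) * c (wp f L)) :
    (q - 1) ^ 2 * ∑ᶠ w, c w = c 1 * ((q ^ 2 - 1) * (q ^ 6 - 1)) := by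
  rw [G2X.wsum_eq G2_rs G2_m G2_chain ![1, 1] G2_wchain1 rfl f hinv hgen hex hM q c hcw]
  simp only [G2flat1, List.map_cons, List.map_nil, List.prod_cons, List.prod_nil, List.sum_cons,
    List.sum_nil, mul_one, add_zero]
  have hp : ∀ k : ℕ, 1 ≤ q ^ k := fun k => Nat.one_le_pow _ _ hq
  zify [hq, hp]
  have := G2_wpoly1 (q : ℤ)
  linear_combination (c 1 : ℤ) * this

variable {K : Type*} [Field K] [Fintype K]

theorem d4_card_Umin1 {σ : GL chevD4.Idx K → GL chevD4.Idx K}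
    (X : TwSetup chevD4 K (bundle_of_mem K memD4) σ rhoD4 rhoInvD4
      (fun r t => (gamD4 r : K) * RingHom.id K t) orbsD4 certD4 (twistedD4 K 1)) :
    ∀ ω ∈ orbsD4, Nat.card ↥(Umin chevD4 K ((bundle_of_mem K memD4).hA.nword ω) ⊓ twistedD4 K 1) =
      Fintype.card K := by
  have hs : ∀ r, rhoInvD4 r = r → gamD4 r = 1 → ∀ τ : ℕ → K,
      Compat (fun r t => (gamD4 r : K) * RingHom.id K t) rhoInvD4 [r] τ := by
    intro r h1 h2 τ
    rw [compat_single h1]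
    simp only [h2, RingHom.id_apply, Int.cast_one, one_mul]
  have hp : ∀ r₁ r₂ r₃, rhoInvD4 r₁ = r₃ → rhoInvD4 r₂ = r₁ → rhoInvD4 r₃ = r₂ → gamD4 r₁ = 1 →
      gamD4 r₂ = 1 → gamD4 r₃ = 1 →
      ∀ τ : ℕ → K, Compat (fun r t => (gamD4 r : K) * RingHom.id K t) rhoInvD4 [r₁, r₂, r₃] τ ↔
        τ r₂ = τ r₁ ∧ τ r₃ = τ r₁ := by
    intro r₁ r₂ r₃ h1 h2 h3 h4 h5 h6 τ
    rw [compat_triple h1 h2 h3]
    simp only [h4, h5, h6, RingHom.id_apply, Int.cast_one, one_mul]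
    constructor
    · rintro ⟨_, h, h'⟩
      exact ⟨h, by rw [h', h]⟩
    · rintro ⟨h, h'⟩
      exact ⟨by rw [h'], h, by rw [h', h]⟩
  have hsingle : ∀ i r, [i] ∈ orbsD4 → [i].map chevD4.simple = [r] → rhoInvD4 r = r →
      gamD4 r = 1 →
      Nat.card ↥(Umin chevD4 K ((bundle_of_mem K memD4).hA.nword [i]) ⊓ twistedD4 K 1) =
        Fintype.card K := by
    intro i r hi hr h1 h2
    rw [X.card_Umin_of_param hi (onlyD4 _ hi) (T := K) (fun t _ => t), Nat.card_eq_fintype_card]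
    · intro t; rw [hr]; exact hs r h1 h2 _
    · intro τ hτ
      rw [hr] at hτ ⊢
      exact ⟨τ r, by simp⟩
    · intro x y h
      rw [hr] at h
      exact h r (by simp)
  have htriple : ∀ i j l r₁ r₂ r₃, [i, j, l] ∈ orbsD4 →
      [i, j, l].map chevD4.simple = [r₁, r₂, r₃] →
      rhoInvD4 r₁ = r₃ → rhoInvD4 r₂ = r₁ → rhoInvD4 r₃ = r₂ → gamD4 r₁ = 1 → gamD4 r₂ = 1 →
      gamD4 r₃ = 1 →
      Nat.card ↥(Umin chevD4 K ((bundle_of_mem K memD4).hA.nword [i, j, l]) ⊓ twistedD4 K 1) =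
        Fintype.card K := by
    intro i j l r₁ r₂ r₃ hi hr h1 h2 h3 h4 h5 h6
    rw [X.card_Umin_of_param hi (onlyD4 _ hi) (T := K) (fun t _ => t), Nat.card_eq_fintype_card]
    · intro t; rw [hr]
      exact (hp r₁ r₂ r₃ h1 h2 h3 h4 h5 h6 _).2 ⟨rfl, rfl⟩
    · intro τ hτ
      rw [hr] at hτ ⊢
      obtain ⟨e1, e2⟩ := (hp r₁ r₂ r₃ h1 h2 h3 h4 h5 h6 _).1 hτ
      refine ⟨τ r₁, ?_⟩
      intro a ha
      simp only [List.mem_cons, List.not_mem_nil, or_false] at ha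
      rcases ha with rfl | rfl | rfl
      · rfl
      · exact e1.symm
      · exact e2.symm
    · intro x y h
      rw [hr] at h
      exact h r₁ (by simp)
  intro ω hω
  simp only [orbsD4, List.mem_cons, List.not_mem_nil, or_false] at hω
  rcases hω with rfl | rfl
  · exact hsingle 1 14 (by decide) rfl rfl rfl
  · exact htriple 0 2 3 18 13 12 (by decide) rfl rfl rfl rfl rfl rfl rfl

theorem d4_card_U11 :
    Nat.card ↥(chevD4.posUnipotent K ⊓ twistedD4 K 1) = Fintype.card K ^ 6 := by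
  obtain ⟨G⟩ := graphConjD40 (bundle_of_mem K memD4).hA
  have X := d4_setup1 G
  rw [X.card_U1 (fun _ => Fintype.card K) (d4_card_Umin1 X) longD4 longD4_mem longD4_red
    longD4_all]
  simp only [longD4, List.map_cons, List.map_nil, List.prod_cons, List.prod_nil]
  ring

/-- CNTD4 -/
theorem d4_card1
    (hH : Nat.card ↥(chevD4.diagonalSubgroup K ⊓ twistedD4 K 1) = (Fintype.card K - 1) ^ 2) :
    Nat.card ↥(twistedD4 K 1) =
      Fintype.card K ^ 6 * (Fintype.card K ^ 2 - 1) * (Fintype.card K ^ 6 - 1) := by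
  obtain ⟨G⟩ := graphConjD40 (bundle_of_mem K memD4).hA
  have X := d4_setup1 G
  set q := Fintype.card K with hqdef
  have hq1 : 1 < q := Fintype.one_lt_card
  have hU : Nat.card ↥(chevD4.posUnipotent K ⊓ twistedD4 K 1) = q ^ 6 := d4_card_U11
  have ha : ∀ i, Nat.card ↥(Umin chevD4 K ((bundle_of_mem K memD4).hA.nword (orbFD4 i)) ⊓
      twistedD4 K 1) = q ^ (![1, 1] i : ℕ) := by
    intro i
    rw [d4_card_Umin1 X _ (orbFD4_mem i)]
    fin_cases i <;> simp [hqdef]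
  have h := X.card_G1 _ orbFD4_mem orbFD4_surj twCoxD4 q ![1, 1] ha ((q - 1) ^ 2)
    ((q ^ 2 - 1) * (q ^ 6 - 1))
    (fun f h1 h2 h3 h4 c hc => G2_wsum1 f h1 h2 h3 h4 q hq1.le c hc)
  rw [hU, hH] at h
  have hE : 0 < (q - 1) ^ 2 := pow_pos (by omega) _
  apply Nat.eq_of_mul_eq_mul_left hE
  rw [h]; ring

end Cfsg.Agent.Lib.Helper62
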