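import Cfsg.Agent.Lib.Helper45.GrSetup
import Cfsg.Agent.Lib.Helper45.TwistE6Count
import Cfsg.Agent.Lib.Helper45.TwistCoxE6
import Cfsg.Agent.Lib.Helper45.TwistOrder
import Cfsg.Agent.Lib.Helper45.WtF4

/-!
# GR ladder, rung CNTE6: the order of `twistedE6 K 1` (fixed points of the graph automorphism
of `E₆(K)`)
-/

set_option autoImplicit false

namespace Cfsg.Agent.Lib.Helper62

open Cfsg.Lie Matrix Cfsg.Agent.Lib.Helper23 Cfsg.Agent.Lib.Helper22 Cfsg.Agent.Lib.Helper8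
  Cfsg.Agent.Lib.Helper45
open Cfsg.Agent.Lib.Helper45.LData

/-- depths (equal weights) in the orbits of the chain of type F4 -/
def F4flat1 : List (List (ℕ × ℕ)) := [[(139534785, 1), (139534657, 2), (139501889, 3), (139501761, 4), (135307585, 4), (139501760, 5), (135307457, 5), (135307456, 6), (135274689, 6), (135274688, 7), (135274561, 7), (135274432, 8), (135274559, 8), (135274431, 9), (135241664, 9), (135241663, 10), (131047360, 10), (135241535, 11), (131047359, 11), (131047231, 12), (131014463, 13), (131014335, 14), (131014334, 15)], [(143794883, 1), (143762115, 2), (143761987, 3), (139567811, 3), (139567683, 4), (139534915, 5), (139534787, 6)], [(141648450, 1), (139551298, 2)], [(137421121, 1)]]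

set_option maxRecDepth 100000 in
theorem F4_wchain1 : F4X.WChainCheck ![1, 1, 1, 1] (List.finRange 4) F4chain F4flat1 := by
  decide +kernel

theorem F4_wpoly1 (q : ℤ) : (q - 1) ^ 4 *
    ((1 + (q ^ 1 + (q ^ 2 + (q ^ 3 + (q ^ 4 + (q ^ 4 + (q ^ 5 + (q ^ 5 + (q ^ 6 + (q ^ 6 + (q ^ 7 +
      (q ^ 7 + (q ^ 8 + (q ^ 8 + (q ^ 9 + (q ^ 9 + (q ^ 10 + (q ^ 10 + (q ^ 11 + (q ^ 11 +
      (q ^ 12 + (q ^ 13 + (q ^ 14 + q ^ 15))))))))))))))))))))))) *
      ((1 + (q ^ 1 + (q ^ 2 + (q ^ 3 + (q ^ 3 + (q ^ 4 + (q ^ 5 + q ^ 6))))))) *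
      ((1 + (q ^ 1 + q ^ 2)) * (1 + q ^ 1)))) =
    (q ^ 2 - 1) * (q ^ 6 - 1) * (q ^ 8 - 1) * (q ^ 12 - 1) := by ring

/-- Poincaré series of type F4 with equal weights -/
theorem F4_wsum1 {W : Type*} [Group W] (f : Fin 4 → W) (hinv : ∀ i, f i * f i = 1)
    (hgen : ∀ w, ∃ L, wp f L = w) (hex : ExCond f)
    (hM : ∀ i j, orderOf (f i * f j) = CoxeterMatrix.F₄ i j) (q : ℕ) (hq : 1 ≤ q) (c : W → ℕ)
    (hcw : ∀ i L, Red f (i :: L) → c (wp f (i :: L)) = q ^ (![1, 1, 1, 1] i : ℕ) * c (wp f L)) :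
    (q - 1) ^ 4 * ∑ᶠ w, c w = c 1 *
      ((q ^ 2 - 1) * (q ^ 6 - 1) * (q ^ 8 - 1) * (q ^ 12 - 1)) := by
  rw [F4X.wsum_eq F4_rs F4_m F4_chain ![1, 1, 1, 1] F4_wchain1 rfl f hinv hgen hex hM q c hcw]
  simp only [F4flat1, List.map_cons, List.map_nil, List.prod_cons, List.prod_nil, List.sum_cons,
    List.sum_nil, mul_one, add_zero]
  have hp : ∀ k : ℕ, 1 ≤ q ^ k := fun k => Nat.one_le_pow _ _ hq
  zify [hq, hp]
  have := F4_wpoly1 (q : ℤ)
  linear_combination (c 1 : ℤ) * this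

variable {K : Type*} [Field K] [Fintype K]

theorem e6_card_Umin1 {σ : GL chevE6.Idx K → GL chevE6.Idx K}
    (X : TwSetup chevE6 K (bundle_of_mem K memE6) σ rhoE6 rhoInvE6
      (fun r t => (gamE6 r : K) * RingHom.id K t) orbsE6 certE6 (twistedE6 K 1)) :
    ∀ ω ∈ orbsE6, Nat.card ↥(Umin chevE6 K ((bundle_of_mem K memE6).hA.nword ω) ⊓ twistedE6 K 1) =
      Fintype.card K := by
  have hs : ∀ r, rhoInvE6 r = r → gamE6 r = 1 → ∀ τ : ℕ → K,
      Compat (fun r t => (gamE6 r : K) * RingHom.id K t) rhoInvE6 [r] τ := by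
    intro r h1 h2 τ
    rw [compat_single h1]
    simp only [h2, RingHom.id_apply, Int.cast_one, one_mul]
  have hp : ∀ r₁ r₂, rhoInvE6 r₁ = r₂ → rhoInvE6 r₂ = r₁ → gamE6 r₁ = 1 → gamE6 r₂ = 1 →
      ∀ τ : ℕ → K, Compat (fun r t => (gamE6 r : K) * RingHom.id K t) rhoInvE6 [r₁, r₂] τ ↔
        τ r₂ = τ r₁ := by
    intro r₁ r₂ h1 h2 h3 h4 τ
    rw [compat_pair h1 h2]
    simp only [h3, h4, RingHom.id_apply, Int.cast_one, one_mul]
    constructor
    · exact fun h => h.2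
    · intro h
      exact ⟨h.symm, h⟩
  have hsingle : ∀ i r, [i] ∈ orbsE6 → [i].map chevE6.simple = [r] → rhoInvE6 r = r →
      gamE6 r = 1 →
      Nat.card ↥(Umin chevE6 K ((bundle_of_mem K memE6).hA.nword [i]) ⊓ twistedE6 K 1) =
        Fintype.card K := by
    intro i r hi hr h1 h2
    rw [X.card_Umin_of_param hi (onlyE6 _ hi) (T := K) (fun t _ => t), Nat.card_eq_fintype_card]
    · intro t; rw [hr]; exact hs r h1 h2 _
    · intro τ hτ
      rw [hr] at hτ ⊢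
      exact ⟨τ r, by simp⟩
    · intro x y h
      rw [hr] at h
      exact h r (by simp)
  have hpair : ∀ i j r₁ r₂, [i, j] ∈ orbsE6 → [i, j].map chevE6.simple = [r₁, r₂] →
      rhoInvE6 r₁ = r₂ → rhoInvE6 r₂ = r₁ → gamE6 r₁ = 1 → gamE6 r₂ = 1 →
      Nat.card ↥(Umin chevE6 K ((bundle_of_mem K memE6).hA.nword [i, j]) ⊓ twistedE6 K 1) =
        Fintype.card K := by
    intro i j r₁ r₂ hi hr h1 h2 h3 h4
    rw [X.card_Umin_of_param hi (onlyE6 _ hi) (T := K) (fun t _ => t), Nat.card_eq_fintype_card]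
    · intro t; rw [hr]; exact (hp r₁ r₂ h1 h2 h3 h4 _).2 rfl
    · intro τ hτ
      rw [hr] at hτ ⊢
      refine ⟨τ r₁, ?_⟩
      intro a ha
      simp only [List.mem_cons, List.not_mem_nil, or_false] at ha
      rcases ha with rfl | rfl
      · rfl
      · exact ((hp r₁ a h1 h2 h3 h4 _).1 hτ).symm
    · intro x y h
      rw [hr] at h
      exact h r₁ (by simp)
  intro ω hω
  simp only [orbsE6, List.mem_cons, List.not_mem_nil, or_false] at hω
  rcases hω with rfl | rfl | rfl | rfl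
  · exact hsingle 1 46 (by decide) rfl rfl rfl
  · exact hsingle 3 39 (by decide) rfl rfl rfl
  · exact hpair 0 5 56 36 (by decide) rfl rfl rfl rfl rfl
  · exact hpair 2 4 42 37 (by decide) rfl rfl rfl rfl rfl

theorem e6_card_U11 :
    Nat.card ↥(chevE6.posUnipotent K ⊓ twistedE6 K 1) = Fintype.card K ^ 24 := by
  obtain ⟨G⟩ := graphConjE60 (bundle_of_mem K memE6).hA
  have X := e6_setup1 G
  rw [X.card_U1 (fun _ => Fintype.card K) (e6_card_Umin1 X) longE6 longE6_mem longE6_red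
    longE6_all]
  simp only [longE6, List.map_cons, List.map_nil, List.prod_cons, List.prod_nil]
  ring

/-- CNTE6 -/
theorem e6_card1
    (hH : Nat.card ↥(chevE6.diagonalSubgroup K ⊓ twistedE6 K 1) = (Fintype.card K - 1) ^ 4) :
    Nat.card ↥(twistedE6 K 1) =
      Fintype.card K ^ 24 * (Fintype.card K ^ 2 - 1) * (Fintype.card K ^ 6 - 1) *
        (Fintype.card K ^ 8 - 1) * (Fintype.card K ^ 12 - 1) := by
  obtain ⟨G⟩ := graphConjE60 (bundle_of_mem K memE6).hA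
  have X := e6_setup1 G
  set q := Fintype.card K with hqdef
  have hq1 : 1 < q := Fintype.one_lt_card
  have hU : Nat.card ↥(chevE6.posUnipotent K ⊓ twistedE6 K 1) = q ^ 24 := e6_card_U11
  have ha : ∀ i, Nat.card ↥(Umin chevE6 K ((bundle_of_mem K memE6).hA.nword (orbFE6 i)) ⊓
      twistedE6 K 1) = q ^ (![1, 1, 1, 1] i : ℕ) := by
    intro i
    rw [e6_card_Umin1 X _ (orbFE6_mem i)]
    fin_cases i <;> simp [hqdef]
  have h := X.card_G1 _ orbFE6_mem orbFE6_surj twCoxE6 q ![1, 1, 1, 1] ha ((q - 1) ^ 4)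
    ((q ^ 2 - 1) * (q ^ 6 - 1) * (q ^ 8 - 1) * (q ^ 12 - 1))
    (fun f h1 h2 h3 h4 c hc => F4_wsum1 f h1 h2 h3 h4 q hq1.le c hc)
  rw [hU, hH] at h
  have hE : 0 < (q - 1) ^ 4 := pow_pos (by omega) _
  apply Nat.eq_of_mul_eq_mul_left hE
  rw [h]; ring

end Cfsg.Agent.Lib.Helper62
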