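import Mathlib
import Cfsg.Agent.Lib.Helper62.HupN26c
import Cfsg.Agent.Lib.Helper71.HupFIT

set_option autoImplicit false

namespace Cfsg.Agent.Lib.Helper62.Hup

open Cfsg.Agent.Lib.Helper76.Hup

/-- RUNG N26 -/
theorem case_two_six {V : Type*} [AddCommGroup V] [Module (ZMod 2) V] [Finite V]
    (hV : Nat.card V = 2 ^ 6) (G : Subgroup (V ≃ₗ[ZMod 2] V)) (hsol : Group.IsSolvable G)
    (htr : Trans G) : HasIAN G := by
  have hfin : Finite (V ≃ₗ[ZMod 2] V) := finite_gl
  apply case_two_six_of hV G htr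
  intro p _ hOp x hxG hx
  exact Cfsg.Agent.Lib.Helper71.Hup.exists_normal_rgroup G hsol hOp x hxG hx

end Cfsg.Agent.Lib.Helper62.Hup
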