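import Mathlib
import Cfsg.Agent.Lib.Helper65.UnipCent
import Cfsg.Agent.Lib.Helper48.JordanForm
import Cfsg.Agent.Lib.Helper62.PGSP2

set_option autoImplicit false
open Module LinearMap Finset

namespace Cfsg.Agent.Lib.Helper62.PG

variable {F V : Type*} [Field F] [Fintype F] [AddCommGroup V] [Module F V] [FiniteDimensional F V]

theorem sp_main (B : LinearMap.BilinForm F V) (hA : B.IsAlt) (hnd : ∀ x, (∀ y, B x y = 0) → x = 0)
    {n r : ℕ} [Fact r.Prime] (hdim : finrank F V = 2 * n) (hrq : ¬ r ∣ Fintype.card F)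
    (β ψ : V →ₗ[F] V) (hβ : ∀ x y, B (β x) (β y) = B x y) (hβr : β ^ r = 1)
    (hc : Commute β ψ) (hsa : ∀ x y, B (ψ x) y = B x (ψ y))
    (hπ : ψ * (∑ i ∈ range r, β ^ i) = 0) (h0 : ψ ≠ 0) (hk : LinearMap.ker ψ ≠ ⊥) :
    ∃ i, 1 ≤ i ∧ i ≤ n - 1 ∧ r ∣ Fintype.card F ^ (2 * i) - 1 := by
  classical
  have hr : r.Prime := Fact.out
  have hr0 : (r : F) ≠ 0 := natCast_ne_zero_of_not_dvd_card hr hrq
  have hcomm : ∀ x, ψ (β x) = β (ψ x) := fun x => (LinearMap.congr_fun hc.eq x).symm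
  have hψP : ∀ x, ψ ((∑ i ∈ range r, β ^ i) x) = 0 := fun x => LinearMap.congr_fun hπ x
  -- the diagonal is additive
  have hadd : ∀ x y, B (ψ (x + y)) (x + y) = B (ψ x) x + B (ψ y) y := by
    intro x y
    have e1 : B (ψ x) y = - B (ψ y) x := by
      rw [hsa x y, LinearMap.IsAlt.neg hA (ψ y) x]
    simp only [map_add, LinearMap.add_apply, e1]
    ring
  let δ : V →+ F := AddMonoidHom.mk' (fun x => B (ψ x) x) hadd
  have hδ : ∀ x, δ x = B (ψ x) x := fun x => rfl
  have hδβ : ∀ (i : ℕ) x, δ ((β ^ i) x) = δ x := by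
    intro i
    induction i with
    | zero => intro x; rfl
    | succ i ih =>
      intro x
      have e2 : (β ^ (i + 1)) x = β ((β ^ i) x) := by rw [pow_succ']; rfl
      rw [e2, hδ, hcomm, hβ, ← hδ, ih]
  have hδ0 : ∀ x, B (ψ x) x = 0 := by
    intro x
    have e1 : δ ((∑ i ∈ range r, β ^ i) x) = (r : F) * δ x := by
      rw [LinearMap.sum_apply, map_sum, Finset.sum_congr rfl (fun i _ => hδβ i x)]
      simp
    rw [hδ, hψP, map_zero, LinearMap.zero_apply] at e1
    exact (mul_eq_zero.1 e1.symm).resolve_left hr0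
  let C : LinearMap.BilinForm F V := B.comp ψ LinearMap.id
  have hCa : ∀ x y, C x y = B (ψ x) y := fun x y => rfl
  have hC : C.IsAlt := fun x => hδ0 x
  have hker : LinearMap.ker C = LinearMap.ker ψ := by
    ext x
    rw [LinearMap.mem_ker, LinearMap.mem_ker]
    constructor
    · intro hx
      apply hnd
      intro y
      rw [← hCa, hx]
      rfl
    · intro hx
      ext y
      rw [hCa, hx]
      simp
  have heven := Cfsg.Agent.Lib.Helper48.even_finrank_add_finrank_ker_of_isAlt C hC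
  rw [hker, hdim] at heven
  set κ := finrank F (LinearMap.ker ψ) with hκ
  have hκ0 : 0 < κ := by
    rw [hκ, Module.finrank_pos_iff, Submodule.nontrivial_iff_ne_bot]
    exact hk
  have hκlt : κ < 2 * n := by
    rw [← hdim]
    apply Submodule.finrank_lt
    intro htop
    exact h0 (LinearMap.ker_eq_top.1 htop)
  have hfixle : LinearMap.ker (β - 1) ≤ LinearMap.ker ψ := by
    intro x hx
    rw [LinearMap.mem_ker, LinearMap.sub_apply, sub_eq_zero] at hx
    have e1 := hψP x
    rw [sum_pow_apply_of_fixed β x hx r, map_smul, smul_eq_zero] at e1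
    exact e1.resolve_left hr0
  have m1 := Cfsg.Agent.Lib.Helper65.UnipCent.modEq_of_invariant β hβr ⊤ (fun _ _ => Submodule.mem_top)
  have m2 := Cfsg.Agent.Lib.Helper65.UnipCent.modEq_of_invariant β hβr (LinearMap.ker ψ) (by
    intro w hw
    rw [LinearMap.mem_ker] at hw ⊢
    rw [hcomm, hw, map_zero])
  rw [top_inf_eq, finrank_top, hdim] at m1
  rw [inf_eq_right.2 hfixle, ← hκ] at m2
  have m3 : Fintype.card F ^ κ ≡ Fintype.card F ^ (2 * n) [MOD r] := m2.trans m1.symm
  have hq : 1 ≤ Fintype.card F := Fintype.card_pos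
  obtain ⟨a, ha⟩ := heven
  have hκ2 : 2 * n - κ = 2 * (2 * n - a) := by omega
  have m4 : r ∣ Fintype.card F ^ (2 * n) - Fintype.card F ^ κ :=
    (Nat.modEq_iff_dvd' (Nat.pow_le_pow_right hq hκlt.le)).1 m3
  have e5 : Fintype.card F ^ (2 * n) = Fintype.card F ^ κ * Fintype.card F ^ (2 * (2 * n - a)) := by
    rw [← pow_add]; congr 1; omega
  rw [e5, ← Nat.mul_sub_one] at m4
  refine ⟨2 * n - a, by omega, by omega, ?_⟩
  rcases hr.dvd_mul.1 m4 with h | h
  · exact absurd (hr.dvd_of_dvd_pow h) hrq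
  · exact h

end Cfsg.Agent.Lib.Helper62.PG
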