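import Mathlib
import Cfsg.Agent.Lib.Helper50.GUFrames

set_option autoImplicit false
open Module LinearMap Finset

namespace Cfsg.Agent.Lib.Helper62.PG

open Cfsg.Agent.Lib.Helper50 Cfsg.Agent.Lib.Helper50.Herm
variable {K V : Type*} [Field K] [Fintype K] [AddCommGroup V] [Module K V]

theorem exists_pow_q_ne {q : ℕ} (hK : Fintype.card K = q ^ 2) : ∃ a : K, a ^ q ≠ a := by
  by_contra hcon
  push Not at hcon
  have h2 := two_le_q hK
  have h1 := card_fixed_ne_zero hK
  have h3 := card_units_K hK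
  have h4 : Nat.card Kˣ ≤ Nat.card {c : K // c ≠ 0 ∧ c ^ q = c} := by
    apply Nat.card_le_card_of_injective (fun u : Kˣ => (⟨(u : K), u.ne_zero, hcon _⟩ : {c : K // c ≠ 0 ∧ c ^ q = c}))
    intro u v huv
    have := congrArg Subtype.val huv
    exact Units.ext this
  rw [h1, h3] at h4
  have : (q - 1) * 2 ≤ (q - 1) * (q + 1) := Nat.mul_le_mul_left _ (by omega)
  omega

/-- without unit vectors the form vanishes -/
theorem form_zero_of_no_unit {q : ℕ} {h : V → V → K} (hK : Fintype.card K = q ^ 2) (hh : IsHerm q h)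
    (W : Submodule K V) (hW : ∀ v ∈ W, h v v ≠ 1) : ∀ x ∈ W, ∀ y ∈ W, h x y = 0 := by
  have h2 := two_le_q hK
  have h0 : ∀ x ∈ W, h x x = 0 := by
    intro x hx
    by_contra hc0
    obtain ⟨l, hl0, hl⟩ := exists_norm_eq hK (h x x) hc0 (hh.symm x x).symm
    apply hW (l⁻¹ • x) (W.smul_mem _ hx)
    rw [hh.smul_left, hh.smul_right, ← hl, pow_succ, inv_pow]
    field_simp
  intro x hx y hy
  obtain ⟨a, ha⟩ := exists_pow_q_ne hK
  have e1 : ∀ a : K, a * h x y + a ^ q * h y x = 0 := by
    intro a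
    have := h0 (a • x + y) (W.add_mem (W.smul_mem _ hx) hy)
    rw [hh.add_left, hh.add_right, hh.add_right, hh.smul_left, hh.smul_left, hh.smul_right, hh.smul_right,
      h0 x hx, h0 y hy] at this
    simpa using this
  have e2 := e1 1
  have e3 := e1 a
  simp only [one_mul, one_pow] at e2
  have e4 : (a - a ^ q) * h x y = 0 := by
    have : h y x = - h x y := by linear_combination e2
    rw [this] at e3
    linear_combination e3
  rcases mul_eq_zero.1 e4 with h5 | h5
  · exact absurd (sub_eq_zero.1 h5).symm ha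
  · exact h5

theorem aCard_eq_aux [Finite V] {q : ℕ} {h : V → V → K} (hK : Fintype.card K = q ^ 2) (hh : IsHerm q h)
    (R : Submodule K V) (ρ : ℕ) : ∀ W : Submodule K V, (∀ x, x ∈ R ↔ x ∈ W ∧ ∀ y ∈ W, h x y = 0) →
    Nat.card W = Nat.card R * q ^ (2 * ρ) → aCard h W = Nat.card R * aSeq q ρ := by
  have h2 := two_le_q hK
  have hRpos : 0 < Nat.card R := Nat.card_pos
  induction ρ with
  | zero =>
    intro W hR hcard
    have hRW : R ≤ W := fun x hx => ((hR x).1 hx).1
    have hEq : R = W := by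
      apply SetLike.coe_injective
      apply Set.eq_of_subset_of_ncard_le hRW _ (Set.toFinite _)
      have e1 : (W : Set V).ncard = Nat.card W := rfl
      have e2 : (R : Set V).ncard = Nat.card R := rfl
      rw [e1, e2, hcard]; simp
    simp only [aSeq, mul_zero, aCard]
    have : IsEmpty {w : V // w ∈ W ∧ h w w = 1} := by
      constructor
      rintro ⟨w, hw, hw1⟩
      have := ((hR w).1 (hEq ▸ hw)).2 w hw
      rw [this] at hw1
      exact zero_ne_one hw1
    exact Nat.card_of_isEmpty
  | succ ρ ih =>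
    intro W hR hcard
    have hex : ∃ v ∈ W, h v v = 1 := by
      by_contra hcon
      push Not at hcon
      have h0 := form_zero_of_no_unit hK hh W hcon
      have hWR : W ≤ R := fun x hx => (hR x).2 ⟨hx, fun y hy => h0 x hx y hy⟩
      have hle : Nat.card W ≤ Nat.card R := Nat.card_le_card_of_injective (Submodule.inclusion hWR)
        (Submodule.inclusion_injective hWR)
      rw [hcard] at hle
      have : 2 ≤ q ^ (2 * (ρ + 1)) := by
        calc 2 ≤ q := h2
          _ = q ^ 1 := (pow_one q).symm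
          _ ≤ q ^ (2 * (ρ + 1)) := Nat.pow_le_pow_right (by omega) (by omega)
      nlinarith
    obtain ⟨v, hv, hvv⟩ := hex
    have hc : Nat.card (perp hh W v) = Nat.card R * q ^ (2 * ρ) := by
      have h3 := Nat.card_congr (splitEquiv hh W v hv hvv)
      rw [Nat.card_prod, hcard, Nat.card_eq_fintype_card (α := K), hK] at h3
      have h4 : Nat.card R * q ^ (2 * (ρ + 1)) = q ^ 2 * (Nat.card R * q ^ (2 * ρ)) := by ring
      rw [h4] at h3
      exact (Nat.eq_of_mul_eq_mul_left (by positivity) h3).symm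
    have hR' : ∀ x, x ∈ R ↔ x ∈ perp hh W v ∧ ∀ y ∈ perp hh W v, h x y = 0 := by
      intro x
      rw [hR x]
      constructor
      · rintro ⟨hx, hxy⟩
        exact ⟨⟨hx, hxy v hv⟩, fun y hy => hxy y hy.1⟩
      · rintro ⟨⟨hx, hxv⟩, hxy⟩
        refine ⟨hx, fun y hy => ?_⟩
        have hy' : y - h y v • v ∈ perp hh W v := by
          refine ⟨W.sub_mem hy (W.smul_mem _ hv), ?_⟩
          rw [hh.sub_left, hh.smul_left, hvv, mul_one, sub_self]
        have e1 := hxy _ hy'
        have e2 : y = (y - h y v • v) + h y v • v := by abel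
        rw [e2, hh.add_right, e1, hh.smul_right, hxv]
        simp
    have h5 := relation hK hh W v hv hvv
    rw [ih _ hR' hc, hc] at h5
    have h6 := aSeq_rel (by omega : 1 ≤ q) ρ
    have h7 : aCard h W + q * (Nat.card R * aSeq q ρ) =
        Nat.card R * aSeq q (ρ + 1) + q * (Nat.card R * aSeq q ρ) := by
      rw [h5]
      calc (q + 1) * (Nat.card R * q ^ (2 * ρ)) = Nat.card R * ((q + 1) * q ^ (2 * ρ)) := by ring
        _ = Nat.card R * (aSeq q (ρ + 1) + q * aSeq q ρ) := by rw [h6]
        _ = _ := by ring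
    exact Nat.add_right_cancel h7

variable [FiniteDimensional K V]

theorem aCard_top_eq [Finite V] {q : ℕ} {h : V → V → K} (hK : Fintype.card K = q ^ 2) (hh : IsHerm q h)
    (R : Submodule K V) (hR : ∀ x, x ∈ R ↔ ∀ y, h x y = 0) (ρ : ℕ)
    (hρ : finrank K R + ρ = finrank K V) :
    aCard h ⊤ = q ^ (2 * finrank K R) * aSeq q ρ := by
  have hcR : Nat.card R = q ^ (2 * finrank K R) := by
    rw [Module.natCard_eq_pow_finrank (K := K), Nat.card_eq_fintype_card, hK, ← pow_mul]
  have hcV : Nat.card (⊤ : Submodule K V) = q ^ (2 * finrank K V) := by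
    rw [Module.natCard_eq_pow_finrank (K := K), Nat.card_eq_fintype_card, hK, ← pow_mul, finrank_top]
  rw [← hcR]
  apply aCard_eq_aux hK hh R ρ ⊤
  · intro x
    rw [hR x]
    simp
  · rw [hcV, hcR, ← hρ, ← pow_add]
    congr 1
    ring

end Cfsg.Agent.Lib.Helper62.PG
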