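import Mathlib
import Cfsg.Agent.Lib.Helper50.GUFrames

set_option autoImplicit false
open Module LinearMap Finset

namespace Cfsg.Agent.Lib.Helper62.PG

open Cfsg.Agent.Lib.Helper50 Cfsg.Agent.Lib.Helper50.Herm
variable {K V : Type*} [Field K] [Fintype K] [AddCommGroup V] [Module K V]

theorem natCast_ne_zero_of_not_dvd {q s : ℕ} (hs : s.Prime) (hK : Fintype.card K = q ^ 2)
    (hsq : ¬ s ∣ q) : (s : K) ≠ 0 := by
  intro h0
  obtain ⟨p, hp⟩ := CharP.exists K
  obtain ⟨n, hpp, hn⟩ := FiniteField.card K p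
  have h1 : p ∣ s := (CharP.cast_eq_zero_iff K p s).1 h0
  have h2 : p = s := (Nat.prime_dvd_prime_iff_eq hpp hs).1 h1
  subst h2
  apply hsq
  have : p ∣ q ^ 2 := by
    rw [← hK, hn]
    exact dvd_pow_self p n.ne_zero
  exact hpp.dvd_of_dvd_pow this

omit [Fintype K] in
theorem pow_apply_of_fixed (β : V →ₗ[K] V) (x : V) (hx : β x = x) (i : ℕ) : (β ^ i) x = x := by
  induction i with
  | zero => rfl
  | succ i ih => rw [pow_succ, Module.End.mul_apply, hx, ih]

omit [Fintype K] in
theorem sum_pow_apply_of_fixed (β : V →ₗ[K] V) (x : V) (hx : β x = x) (s : ℕ) :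
    (∑ i ∈ range s, β ^ i) x = (s : K) • x := by
  rw [LinearMap.sum_apply, Finset.sum_congr rfl (fun i _ => pow_apply_of_fixed β x hx i)]
  simp [Nat.cast_smul_eq_nsmul]

variable [FiniteDimensional K V]

theorem u_main {q s : ℕ} [Fact s.Prime] (hK : Fintype.card K = q ^ 2) (H : V → V → K)
    (hH : IsHerm q H) (hnd : ∀ x, (∀ y, H x y = 0) → x = 0) (hsq : ¬ s ∣ q)
    (β ψ : V →ₗ[K] V) (hβ : ∀ x y, H (β x) (β y) = H x y) (hβs : β ^ s = 1) (hc : Commute β ψ)
    (hsa : ∀ x y, H (ψ x) y = H x (ψ y)) (hπ : ψ * (∑ i ∈ range s, β ^ i) = 0) (ρ : ℕ)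
    (hρ : finrank K (LinearMap.ker ψ) + ρ = finrank K V) (hρ1 : 1 ≤ ρ)
    (hcount : ∀ h : V → V → K, IsHerm q h → ∀ R : Submodule K V, (∀ x, x ∈ R ↔ ∀ y, h x y = 0) →
      ∀ ρ : ℕ, finrank K R + ρ = finrank K V → aCard h ⊤ = q ^ (2 * finrank K R) * aSeq q ρ) :
    s ∣ bSeq q (ρ - 1) := by
  classical
  have hs : s.Prime := Fact.out
  have hs0 : (s : K) ≠ 0 := natCast_ne_zero_of_not_dvd hs hK hsq
  have : Finite V := Module.finite_of_finite K
  set h : V → V → K := fun x y => H (ψ x) y with hdef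
  have hh : IsHerm q h :=
    { add_left := fun u u' v => by simp only [hdef, map_add, hH.add_left]
      smul_left := fun c u v => by simp only [hdef, map_smul, hH.smul_left]
      add_right := fun u v v' => by simp only [hdef, hH.add_right]
      smul_right := fun c u v => by simp only [hdef, hH.smul_right]
      symm := fun u v => by
        simp only [hdef]
        rw [hH.symm u (ψ v), hsa u v] }
  have hR : ∀ x, x ∈ LinearMap.ker ψ ↔ ∀ y, h x y = 0 := by
    intro x
    rw [LinearMap.mem_ker]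
    constructor
    · intro hx y
      simp only [hdef, hx, hH.zero_left]
    · intro hx
      exact hnd _ hx
  have h1 := hcount h hh _ hR ρ hρ
  obtain ⟨ρ', rfl⟩ : ∃ ρ', ρ = ρ' + 1 := ⟨ρ - 1, by omega⟩
  rw [Nat.add_sub_cancel]
  have hcomm : ∀ x, ψ (β x) = β (ψ x) := by
    intro x
    have := congrArg (fun f : V →ₗ[K] V => f x) hc.eq
    simpa [Module.End.mul_apply] using this.symm
  -- the action on the unit vectors
  have : Fintype {w : V // w ∈ (⊤ : Submodule K V) ∧ h w w = 1} := Fintype.ofFinite _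
  let f : Function.End {w : V // w ∈ (⊤ : Submodule K V) ∧ h w w = 1} :=
    fun w => ⟨β w.1, Submodule.mem_top, by
      have := w.2.2
      simp only [hdef] at this ⊢
      rw [hcomm, hβ, this]⟩
  have hf : ∀ (k : ℕ) (w : {w : V // w ∈ (⊤ : Submodule K V) ∧ h w w = 1}),
      ((f ^ k) w : V) = (β ^ k) w.1 := by
    intro k
    induction k with
    | zero => intro w; rfl
    | succ k ih =>
      intro w
      rw [pow_succ', pow_succ']
      show β ((f ^ k) w : V) = β ((β ^ k) w.1)
      rw [ih]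
  have hfr : f ^ s ^ 1 = 1 := by
    funext w
    apply Subtype.ext
    rw [pow_one, hf, hβs]
    rfl
  have h2 := Equiv.Perm.card_fixedPoints_modEq hfr
  have h3 : IsEmpty (Function.fixedPoints f) := by
    constructor
    rintro ⟨w, hw⟩
    have hw1 : β w.1 = w.1 := congrArg Subtype.val hw
    have e1 := sum_pow_apply_of_fixed β w.1 hw1 s
    have e2 : ψ ((∑ i ∈ range s, β ^ i) w.1) = 0 := by
      have := congrArg (fun f : V →ₗ[K] V => f w.1) hπ
      simpa [Module.End.mul_apply] using this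
    rw [e1, map_smul, smul_eq_zero] at e2
    have e3 : ψ w.1 = 0 := e2.resolve_left hs0
    have e4 := w.2.2
    simp only [hdef, e3, hH.zero_left] at e4
    exact zero_ne_one e4
  rw [Fintype.card_eq_zero (α := Function.fixedPoints f)] at h2
  have h4 : s ∣ aCard h ⊤ := by
    rw [aCard, Nat.card_eq_fintype_card]
    exact (Nat.modEq_zero_iff_dvd).1 h2
  rw [h1, aSeq] at h4
  have hsq' : ∀ k, ¬ s ∣ q ^ k := fun k hk => hsq (hs.dvd_of_dvd_pow hk)
  rcases hs.dvd_mul.1 h4 with h5 | h5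
  · exact absurd h5 (hsq' _)
  · rcases hs.dvd_mul.1 h5 with h6 | h6
    · exact absurd h6 (hsq' _)
    · exact h6

end Cfsg.Agent.Lib.Helper62.PG
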