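import Mathlib
import Cfsg.Agent.Lib.Helper50.GUFrames
import Cfsg.Agent.Lib.Helper62.PGU1
import Cfsg.Agent.Lib.Helper62.PGU2

set_option autoImplicit false
open Module LinearMap Finset

namespace Cfsg.Agent.Lib.Helper62.PG

open Cfsg.Agent.Lib.Helper50 Cfsg.Agent.Lib.Helper50.Herm
variable {K V : Type*} [Field K] [AddCommGroup V] [Module K V]

theorem herm_sub_right {q : ℕ} {H : V → V → K} (hH : IsHerm q H) (u v v' : V) :
    H u (v - v') = H u v - H u v' := by
  have := hH.add_right u (v - v') v'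
  rw [sub_add_cancel] at this
  rw [this]; ring

theorem iso_pow {H : V → V → K} (β : V →ₗ[K] V) (hβ : ∀ x y, H (β x) (β y) = H x y) (i : ℕ) :
    ∀ x y, H ((β ^ i) x) ((β ^ i) y) = H x y := by
  induction i with
  | zero => intro x y; rfl
  | succ i ih =>
    intro x y
    rw [pow_succ', Module.End.mul_apply, Module.End.mul_apply, hβ, ih]

theorem pow_mul_geom (β : V →ₗ[K] V) {s : ℕ} (hβs : β ^ s = 1) (i : ℕ) :
    β ^ i * (∑ i ∈ range s, β ^ i) = ∑ i ∈ range s, β ^ i := by
  have h1 : β * (∑ i ∈ range s, β ^ i) = ∑ i ∈ range s, β ^ i := by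
    have := mul_geom_sum β s
    rw [hβs, sub_self, sub_mul, one_mul, sub_eq_zero] at this
    exact this
  induction i with
  | zero => simp
  | succ i ih => rw [pow_succ, mul_assoc, h1, ih]

theorem geom_sq (β : V →ₗ[K] V) {s : ℕ} (hβs : β ^ s = 1) :
    (∑ i ∈ range s, β ^ i) * (∑ i ∈ range s, β ^ i) = (s : K) • (∑ i ∈ range s, β ^ i) := by
  conv_lhs => rw [Finset.sum_mul]
  rw [Finset.sum_congr rfl (fun i _ => pow_mul_geom β hβs i)]
  simp [Nat.cast_smul_eq_nsmul]

/-- the averaging operator is self-adjoint -/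
theorem geom_selfadj {q s : ℕ} (hq : q ≠ 0) {H : V → V → K} (hH : IsHerm q H) (hs0 : (s : K) ≠ 0)
    (β : V →ₗ[K] V) (hβ : ∀ x y, H (β x) (β y) = H x y) (hβs : β ^ s = 1) (x y : V) :
    H ((∑ i ∈ range s, β ^ i) x) y = H x ((∑ i ∈ range s, β ^ i) y) := by
  set P := ∑ i ∈ range s, β ^ i with hP
  have hfix : ∀ i z, (β ^ i) (P z) = P z := by
    intro i z
    exact LinearMap.congr_fun (pow_mul_geom β hβs i) z
  have hPz : ∀ z, P z = ∑ i ∈ range s, (β ^ i) z := by
    intro z
    rw [hP, LinearMap.sum_apply]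
  have e1 : H (P x) (P y) = (s : K) * H (P x) y := by
    rw [hPz y, hH.sum_right hq]
    have : ∀ i ∈ range s, H (P x) ((β ^ i) y) = H (P x) y := by
      intro i _
      conv_lhs => rw [← hfix i x]
      exact iso_pow β hβ i _ _
    rw [Finset.sum_congr rfl this]
    simp
  have e2 : H (P x) (P y) = (s : K) * H x (P y) := by
    rw [hPz x, hH.sum_left]
    have : ∀ i ∈ range s, H ((β ^ i) x) (P y) = H x (P y) := by
      intro i _
      conv_lhs => rw [← hfix i y]
      exact iso_pow β hβ i _ _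
    rw [Finset.sum_congr rfl this]
    simp
  exact mul_left_cancel₀ hs0 (e1.symm.trans e2)

theorem exists_last_pow (ν T : V →ₗ[K] V) (hν : IsNilpotent ν) (hT : T ≠ 0) :
    ∃ j : ℕ, ν ^ j * T ≠ 0 ∧ ν ^ (j + 1) * T = 0 := by
  classical
  obtain ⟨k, hk⟩ := hν
  have hex : ∃ k, ν ^ k * T = 0 := ⟨k, by rw [hk, zero_mul]⟩
  have h1 := Nat.find_spec hex
  have h2 : Nat.find hex ≠ 0 := by
    intro h0
    rw [h0] at h1
    simp at h1
    exact hT h1
  obtain ⟨j, hj⟩ := Nat.exists_eq_succ_of_ne_zero h2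
  refine ⟨j, Nat.find_min hex (by omega), ?_⟩
  rw [← Nat.succ_eq_add_one, ← hj]
  exact h1

theorem key_adj {q : ℕ} {H : V → V → K} (hH : IsHerm q H) (α : V →ₗ[K] V)
    (hα : ∀ x y, H (α x) (α y) = H x y) (j : ℕ) :
    ∀ x y, H (((α - 1) ^ j) x) ((α ^ j) y) = (-1) ^ j * H x (((α - 1) ^ j) y) := by
  have hcomm : ∀ k z, (α - 1) ((α ^ k) z) = (α ^ k) ((α - 1) z) := by
    intro k z
    have h1 : Commute (α - 1) (α ^ k) := ((Commute.refl α).sub_left (Commute.one_left α)).pow_right k
    have := congrArg (fun f : V →ₗ[K] V => f z) h1.eq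
    simpa [Module.End.mul_apply] using this
  have key : ∀ x y, H ((α - 1) x) (α y) = - H x ((α - 1) y) := by
    intro x y
    simp only [LinearMap.sub_apply, Module.End.one_apply]
    rw [hH.sub_left, herm_sub_right hH, hα]
    ring
  induction j with
  | zero => intro x y; simp
  | succ j ih =>
    intro x y
    have e1 : ((α - 1) ^ (j + 1)) x = (α - 1) (((α - 1) ^ j) x) := by rw [pow_succ']; rfl
    have e2 : (α ^ (j + 1)) y = α ((α ^ j) y) := by rw [pow_succ']; rfl
    have e3 : ((α - 1) ^ (j + 1)) y = ((α - 1) ^ j) ((α - 1) y) := by rw [pow_succ]; rfl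
    rw [e1, e2, e3, key, hcomm, ih]
    ring

theorem fixed_pow_right {H : V → V → K} (α : V →ₗ[K] V) (hα : ∀ x y, H (α x) (α y) = H x y)
    (w : V) (hw : α w = w) (k : ℕ) : ∀ z, H w ((α ^ k) z) = H w z := by
  induction k with
  | zero => intro z; rfl
  | succ k ih =>
    intro z
    have e2 : (α ^ (k + 1)) z = α ((α ^ k) z) := by rw [pow_succ']; rfl
    rw [e2]
    conv_lhs => rw [← hw]
    rw [hα, ih]

theorem two_le_finrank_ker_of_sq_zero [FiniteDimensional K V] (ψ : V →ₗ[K] V) (hψ : ψ * ψ = 0)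
    (hm : 4 ≤ finrank K V) : 2 ≤ finrank K (LinearMap.ker ψ) := by
  have h1 : LinearMap.range ψ ≤ LinearMap.ker ψ := by
    rintro _ ⟨x, rfl⟩
    have := congrArg (fun f : V →ₗ[K] V => f x) hψ
    simpa [Module.End.mul_apply] using this
  have h2 := Submodule.finrank_mono h1
  have h3 := LinearMap.finrank_range_add_finrank_ker ψ
  omega

theorem two_le_finrank_of_pair [FiniteDimensional K V] (W : Submodule K V) (ν : V →ₗ[K] V) (u : V)
    (hu : u ∈ W) (hw : ν u ∈ W) (h1 : ν u ≠ 0) (h2 : ν (ν u) = 0) : 2 ≤ finrank K W := by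
  have hli : LinearIndependent K ![u, ν u] := by
    rw [LinearIndependent.pair_iff]
    intro a b hab
    have e1 := congrArg ν hab
    rw [map_add, map_smul, map_smul, h2, smul_zero, add_zero, map_zero, smul_eq_zero] at e1
    have ha : a = 0 := e1.resolve_right h1
    rw [ha, zero_smul, zero_add, smul_eq_zero] at hab
    exact ⟨ha, hab.resolve_right h1⟩
  have h3 := finrank_span_eq_card hli
  have h4 : Submodule.span K (Set.range ![u, ν u]) ≤ W := by
    rw [Submodule.span_le]
    rintro _ ⟨i, rfl⟩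
    fin_cases i
    · exact hu
    · exact hw
  have h5 := Submodule.finrank_mono h4
  rw [h3] at h5
  simpa using h5

variable [Fintype K] [FiniteDimensional K V]

theorem natCast_pow_q {q : ℕ} (hK : Fintype.card K = q ^ 2) (n : ℕ) : ((n : K)) ^ q = n := by
  have h2 := two_le_q hK
  induction n with
  | zero => simp [zero_pow (by omega : q ≠ 0)]
  | succ n ih => rw [Nat.cast_succ, add_pow_q hK, ih, one_pow]

theorem u_adj {q s m : ℕ} [Fact s.Prime] (hK : Fintype.card K = q ^ 2) (H : V → V → K)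
    (hH : IsHerm q H) (hnd : ∀ x, (∀ y, H x y = 0) → x = 0) (hsq : ¬ s ∣ q) (hs1 : ¬ s ∣ q + 1)
    (hdim : finrank K V = m) (hm : 4 ≤ m)
    (α β : V →ₗ[K] V) (hα : ∀ x y, H (α x) (α y) = H x y) (hβ : ∀ x y, H (β x) (β y) = H x y)
    (hαn : IsNilpotent (α - 1)) (hα1 : α ≠ 1) (hβs : β ^ s = 1) (hβ1 : β ≠ 1) (hc : Commute α β)
    (hmain : ∀ ψ : V →ₗ[K] V, Commute β ψ → (∀ x y, H (ψ x) y = H x (ψ y)) →
      ψ * (∑ i ∈ range s, β ^ i) = 0 → ∀ ρ : ℕ, finrank K (LinearMap.ker ψ) + ρ = finrank K V →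
      1 ≤ ρ → s ∣ bSeq q (ρ - 1)) :
    ∃ i, 2 ≤ i ∧ i ≤ m - 2 ∧ s ∣ bSeq q (i - 1) := by
  classical
  have hs : s.Prime := Fact.out
  have h2 := two_le_q hK
  have hq0 : q ≠ 0 := by omega
  have hs0 : (s : K) ≠ 0 := natCast_ne_zero_of_not_dvd hs hK hsq
  -- reduction
  suffices hex : ∃ ψ : V →ₗ[K] V, Commute β ψ ∧ (∀ x y, H (ψ x) y = H x (ψ y)) ∧
      ψ * (∑ i ∈ range s, β ^ i) = 0 ∧ ψ ≠ 0 ∧ 2 ≤ finrank K (LinearMap.ker ψ) by
    obtain ⟨ψ, hψc, hψsa, hψπ, hψ0, hψk⟩ := hex
    have hlt : finrank K (LinearMap.ker ψ) < finrank K V := by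
      apply Submodule.finrank_lt
      intro htop
      exact hψ0 (LinearMap.ker_eq_top.1 htop)
    have h3 := hmain ψ hψc hψsa hψπ (m - finrank K (LinearMap.ker ψ)) (by omega) (by omega)
    refine ⟨m - finrank K (LinearMap.ker ψ), ?_, by omega, h3⟩
    by_contra hlt2
    have h4 : m - finrank K (LinearMap.ker ψ) = 1 := by omega
    rw [h4] at h3
    simp [bSeq] at h3
    exact hs1 h3
  set P := ∑ i ∈ range s, β ^ i with hP
  set ν := α - 1 with hν
  set e : V →ₗ[K] V := (s : K) • 1 - P with he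
  have hPP : P * P = (s : K) • P := geom_sq β hβs
  have heP : e * P = 0 := by
    rw [he, sub_mul, smul_mul_assoc, one_mul, hPP, sub_self]
  have hβP : Commute β P := Commute.sum_right _ _ _ (fun i _ => (Commute.refl β).pow_right i)
  have hβe : Commute β e := ((Commute.one_right β).smul_right _).sub_right hβP
  have hνβ : Commute ν β := hc.sub_left (Commute.one_left β)
  have hνP : Commute ν P := Commute.sum_right _ _ _ (fun i _ => hνβ.pow_right i)
  have hνe : Commute ν e := ((Commute.one_right ν).smul_right _).sub_right hνP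
  have hPsa : ∀ x y, H (P x) y = H x (P y) := geom_selfadj hq0 hH hs0 β hβ hβs
  have hesa : ∀ x y, H (e x) y = H x (e y) := by
    intro x y
    simp only [he, LinearMap.sub_apply, LinearMap.smul_apply, Module.End.one_apply]
    rw [hH.sub_left, herm_sub_right hH, hH.smul_left, hH.smul_right, natCast_pow_q hK, hPsa]
  have hν0 : ν ≠ 0 := fun h => hα1 (sub_eq_zero.1 h)
  have he0 : e ≠ 0 := by
    intro h0
    apply hβ1
    have h3 : (s : K) • (1 : V →ₗ[K] V) = P := sub_eq_zero.1 h0
    have h4 : β * P = P := by simpa using pow_mul_geom β hβs 1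
    rw [← h3, mul_smul_comm, mul_one] at h4
    exact smul_right_injective _ hs0 h4
  by_cases hA : ν * e = 0
  · -- Case A
    refine ⟨e, hβe, hesa, heP, he0, ?_⟩
    have hνP0 : ν * P ≠ 0 := by
      intro h0
      apply hν0
      have h3 : (s : K) • ν = ν * e + ν * P := by
        rw [← mul_add, he, sub_add_cancel, mul_smul_comm, mul_one]
      rw [hA, h0, add_zero] at h3
      exact (smul_eq_zero.1 h3).resolve_left hs0
    obtain ⟨j, hj1, hj2⟩ := exists_last_pow ν (ν * P) hαn hνP0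
    obtain ⟨x, hx⟩ : ∃ x, (ν ^ j * (ν * P)) x ≠ 0 := by
      by_contra hcon
      push Not at hcon
      exact hj1 (LinearMap.ext hcon)
    have hek : ∀ (k : ℕ) z, e ((ν ^ k) (P z)) = 0 := by
      intro k z
      have h3 : e * (ν ^ k * P) = 0 := by
        rw [← mul_assoc, ((hνe.pow_left k).eq).symm, mul_assoc, heP, mul_zero]
      have := congrArg (fun f : V →ₗ[K] V => f z) h3
      simpa [Module.End.mul_apply] using this
    have e1 : ν ((ν ^ j) (P x)) = (ν ^ j * (ν * P)) x := by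
      rw [← mul_assoc, ← pow_succ, pow_succ']
      simp [Module.End.mul_apply]
    apply two_le_finrank_of_pair (LinearMap.ker e) ν ((ν ^ j) (P x))
    · exact hek j x
    · have : ν ((ν ^ j) (P x)) = (ν ^ (j + 1)) (P x) := by
        rw [pow_succ']; rfl
      rw [this]
      exact hek (j + 1) x
    · rw [e1]; exact hx
    · rw [e1]
      have := congrArg (fun f : V →ₗ[K] V => f x) hj2
      rw [pow_succ'] at this
      simpa [Module.End.mul_apply] using this
  · -- Case B
    obtain ⟨j', hj1, hj2⟩ := exists_last_pow ν (ν * e) hαn hA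
    set j := j' + 1 with hj
    have hj1' : ν ^ j * e ≠ 0 := by
      rw [hj, pow_succ, mul_assoc]; exact hj1
    have hj2' : ν ^ (j + 1) * e = 0 := by
      rw [pow_succ, mul_assoc]; exact hj2
    set ψ0 := ν ^ j * e with hψ0
    have hsq0 : ψ0 * ψ0 = 0 := by
      have h3 : ψ0 * ψ0 = ν ^ j' * (ν ^ (j + 1) * e) * e := by
        rw [hψ0]
        have c1 : e * (ν ^ j * e) = ν ^ j * e * e := by
          rw [← mul_assoc, ((hνe.pow_left j).eq).symm]
        rw [mul_assoc, c1, ← mul_assoc, ← mul_assoc, ← pow_add, ← mul_assoc, ← pow_add]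
        congr 3
        omega
      rw [h3, hj2', mul_zero, zero_mul]
    have hβψ0 : Commute β ψ0 := ((hνβ.symm).pow_right j).mul_right hβe
    have hψ0P : ψ0 * P = 0 := by rw [hψ0, mul_assoc, heP, mul_zero]
    have hadj : ∀ x y, H (ψ0 x) y = (-1) ^ j * H x (ψ0 y) := by
      intro x y
      have hw : α (ψ0 x) = ψ0 x := by
        have h3 : ν * ψ0 = 0 := by rw [hψ0, ← mul_assoc, ← pow_succ']; exact hj2'
        have := congrArg (fun f : V →ₗ[K] V => f x) h3
        simp only [Module.End.mul_apply, hν, LinearMap.sub_apply, Module.End.one_apply,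
          LinearMap.zero_apply] at this
        exact sub_eq_zero.1 this
      rw [← fixed_pow_right α hα _ hw j y]
      have h4 : ψ0 x = (ν ^ j) (e x) := rfl
      rw [h4, key_adj hH α hα j, hesa]
      have h5 : e ((ν ^ j) y) = ψ0 y := by
        exact (LinearMap.congr_fun (hνe.pow_left j).eq y).symm
      rw [← hν, h5]
    rcases Nat.even_or_odd j with hev | hodd
    · refine ⟨ψ0, hβψ0, ?_, hψ0P, hj1', two_le_finrank_ker_of_sq_zero ψ0 hsq0 (by omega)⟩
      intro x y
      rw [hadj, hev.neg_one_pow, one_mul]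
    · obtain ⟨a, ha⟩ := exists_pow_q_ne hK
      set ε := a - a ^ q with hε
      have hε0 : ε ≠ 0 := fun h => ha (sub_eq_zero.1 h).symm
      have hεq : ε ^ q = - ε := by
        rw [hε, sub_pow_q hK, pow_q_sq hK]; ring
      refine ⟨ε • ψ0, hβψ0.smul_right ε, ?_, ?_, ?_, two_le_finrank_ker_of_sq_zero _ ?_ (by omega)⟩
      · intro x y
        simp only [LinearMap.smul_apply]
        rw [hH.smul_left, hH.smul_right, hadj, hodd.neg_one_pow, hεq]
        ring
      · rw [smul_mul_assoc, hψ0P, smul_zero]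
      · intro h0
        exact hj1' ((smul_eq_zero.1 h0).resolve_left hε0)
      · rw [smul_mul_assoc, mul_smul_comm, hsq0, smul_zero, smul_zero]

end Cfsg.Agent.Lib.Helper62.PG
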