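import Mathlib
import Cfsg.Agent.Lib.Helper50.GUFrames
import Cfsg.Agent.S0278

set_option autoImplicit false
open Module LinearMap Finset

namespace Cfsg.Agent.Lib.Helper62.PG

open Cfsg.Agent.Lib.Helper50 Cfsg.Agent.Lib.Helper50.Herm
variable {K : Type*} [Field K] [Fintype K]

theorem card_SU_eq {q : ℕ} (hK : Fintype.card K = q ^ 2) (k : ℕ) :
    Nat.card ↥(Cfsg.SU (k + 1) K q) =
      q ^ ((k + 1) * (k + 1 - 1) / 2) * ∏ i ∈ Finset.range k, bSeq q (i + 1) := by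
  have h1 := Cfsg.Agent.S0278.result hK (k + 1) (by omega)
  rw [Finset.prod_range_succ'] at h1
  simp only [Even.zero, if_true, zero_add, pow_one] at h1
  have h2 : (q + 1) * Nat.card ↥(Cfsg.SU (k + 1) K q) =
      (q + 1) * (q ^ ((k + 1) * (k + 1 - 1) / 2) * ∏ i ∈ Finset.range k, bSeq q (i + 1)) := by
    rw [h1]
    simp only [bSeq]
    ring
  exact Nat.eq_of_mul_eq_mul_left (by omega) h2

theorem dvd_card_SU {q : ℕ} (hK : Fintype.card K = q ^ 2) (k i s : ℕ) (hi : 2 ≤ i) (hik : i ≤ k)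
    (hs : s ∣ bSeq q (i - 1)) : s ∣ Nat.card ↥(Cfsg.SU k K q) := by
  obtain ⟨k', rfl⟩ : ∃ k', k = k' + 1 := ⟨k - 1, by omega⟩
  rw [card_SU_eq hK k']
  apply Dvd.dvd.mul_left
  have h1 : bSeq q (i - 2 + 1) ∣ ∏ i ∈ Finset.range k', bSeq q (i + 1) :=
    Finset.dvd_prod_of_mem (fun i => bSeq q (i + 1)) (Finset.mem_range.2 (by omega))
  have h2 : i - 2 + 1 = i - 1 := by omega
  rw [h2] at h1
  exact hs.trans h1

theorem q_dvd_card_SU {q : ℕ} (hK : Fintype.card K = q ^ 2) (k : ℕ) (hk : 2 ≤ k) :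
    q ∣ Nat.card ↥(Cfsg.SU k K q) := by
  obtain ⟨k', rfl⟩ : ∃ k', k = k' + 2 := ⟨k - 2, by omega⟩
  rw [card_SU_eq hK (k' + 1)]
  apply Dvd.dvd.mul_right
  apply dvd_pow_self
  have h1 : 2 ≤ (k' + 1 + 1) * (k' + 1 + 1 - 1) := by
    have : (k' + 1 + 1) * (k' + 1 + 1 - 1) = k' * k' + 3 * k' + 2 := by
      rw [Nat.add_sub_cancel]; ring
    omega
  have := Nat.div_le_div_right (c := 2) h1
  omega

end Cfsg.Agent.Lib.Helper62.PG
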